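import Cfsg.Agent.Lib.ToddCox.SP44O.Lv0
set_option autoImplicit false
set_option maxRecDepth 100000
namespace Cfsg.Agent.Lib.ToddCox.SP44O

abbrev gen : ℕ → PresentedGroup Cfsg.Agent.Lib.ToddCox.SP44T.rels := genP Cfsg.Agent.Lib.ToddCox.SP44T.rels Cfsg.Agent.Lib.ToddCox.SP44T.LT

theorem hLT : ∀ y, y < 8 → relW Cfsg.Agent.Lib.ToddCox.SP44T.sg (Cfsg.Agent.Lib.ToddCox.SP44T.LT.getD y 1) = [y] := by decide +kernel
theorem hLm : ∀ w ∈ L, ∀ a ∈ w, a < 8 := by decide +kernel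
theorem low {ρ : PresentedGroup Cfsg.Agent.Lib.ToddCox.SP44T.rels →* Equiv.Perm (Fin 136)}
    (hρ : ∀ r (i : Fin 136), ((ρ (PresentedGroup.mk Cfsg.Agent.Lib.ToddCox.SP44T.rels r) i : Fin 136) : ℕ) = tabW Cfsg.Agent.Lib.ToddCox.SP44T.tab (relW Cfsg.Agent.Lib.ToddCox.SP44T.sg r) i) :
    979200 ≤ Nat.card (sgsG (fun w => ρ (wordVal gen w)) L 0) := by
  have hel : ∀ w ∈ L, ∀ i : Fin 136, (((fun w => ρ (wordVal gen w)) w i : Fin 136) : ℕ) = tabW Cfsg.Agent.Lib.ToddCox.SP44T.tab w i :=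
    fun w hw i => rep_word hρ hLT (hLm w hw) i
  have h4 : 1 ≤ Nat.card (sgsG (fun w => ρ (wordVal gen w)) L 23) := sgsG_pos _ _
  have c3 : ∀ k, k < 4 → chkOrbPos Cfsg.Agent.Lib.ToddCox.SP44T.tab L 21 3 4 136 (fun q => orbR (Nat.add 235 q)) k = true :=
    defs_of_bits 4 11 1 (by norm_num) (by
      intro j hj
      interval_cases j
      · exact lv3_0
      )
  have h3 : 4 * 1 ≤ Nat.card (sgsG (fun w => ρ (wordVal gen w)) L 21) :=
    le_trans (Nat.mul_le_mul_left 4 h4) (level_bound (by norm_num) (by norm_num) hel fx3 c3)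
  norm_num at h3
  have c2 : ∀ k, k < 24 → chkOrbPos Cfsg.Agent.Lib.ToddCox.SP44T.tab L 15 2 24 136 (fun q => orbR (Nat.add 211 q)) k = true :=
    defs_of_bits 24 11 1 (by norm_num) (by
      intro j hj
      interval_cases j
      · exact lv2_0
      )
  have h2 : 24 * 4 ≤ Nat.card (sgsG (fun w => ρ (wordVal gen w)) L 15) :=
    le_trans (Nat.mul_le_mul_left 24 h3) (level_bound (by norm_num) (by norm_num) hel fx2 c2)
  norm_num at h2
  have c1 : ∀ k, k < 75 → chkOrbPos Cfsg.Agent.Lib.ToddCox.SP44T.tab L 8 1 75 136 (fun q => orbR (Nat.add 136 q)) k = true :=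
    defs_of_bits 75 11 1 (by norm_num) (by
      intro j hj
      interval_cases j
      · exact lv1_0
      )
  have h1 : 75 * 96 ≤ Nat.card (sgsG (fun w => ρ (wordVal gen w)) L 8) :=
    le_trans (Nat.mul_le_mul_left 75 h2) (level_bound (by norm_num) (by norm_num) hel fx1 c1)
  norm_num at h1
  have c0 : ∀ k, k < 136 → chkOrbPos Cfsg.Agent.Lib.ToddCox.SP44T.tab L 0 0 136 136 (fun q => orbR (Nat.add 0 q)) k = true :=
    defs_of_bits 136 11 1 (by norm_num) (by
      intro j hj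
      interval_cases j
      · exact lv0_0
      )
  have h0 : 136 * 7200 ≤ Nat.card (sgsG (fun w => ρ (wordVal gen w)) L 0) :=
    le_trans (Nat.mul_le_mul_left 136 h1) (level_bound (by norm_num) (by norm_num) hel fx0 c0)
  norm_num at h0
  exact h0
end Cfsg.Agent.Lib.ToddCox.SP44O
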