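import Cfsg.Agent.Lib.ToddCox.SP44O.OrbD
set_option autoImplicit false
set_option maxRecDepth 100000
namespace Cfsg.Agent.Lib.ToddCox.SP44O
open Cfsg.Agent.Lib.ToddCox.SP44T in
theorem lv0_0 : allBits (fun k => bif Nat.blt k 136 then chkOrbPos Cfsg.Agent.Lib.ToddCox.SP44T.tab L 0 0 136 136 (fun q => orbR (Nat.add 0 q)) k else true) 11 0 = true := by decide +kernel
theorem fx0 : ∀ w ∈ L.drop 8, tabW Cfsg.Agent.Lib.ToddCox.SP44T.tab w 0 = 0 := by decide +kernel
theorem lv1_0 : allBits (fun k => bif Nat.blt k 75 then chkOrbPos Cfsg.Agent.Lib.ToddCox.SP44T.tab L 8 1 75 136 (fun q => orbR (Nat.add 136 q)) k else true) 11 0 = true := by decide +kernel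
theorem fx1 : ∀ w ∈ L.drop 15, tabW Cfsg.Agent.Lib.ToddCox.SP44T.tab w 1 = 1 := by decide +kernel
theorem lv2_0 : allBits (fun k => bif Nat.blt k 24 then chkOrbPos Cfsg.Agent.Lib.ToddCox.SP44T.tab L 15 2 24 136 (fun q => orbR (Nat.add 211 q)) k else true) 11 0 = true := by decide +kernel
theorem fx2 : ∀ w ∈ L.drop 21, tabW Cfsg.Agent.Lib.ToddCox.SP44T.tab w 2 = 2 := by decide +kernel
theorem lv3_0 : allBits (fun k => bif Nat.blt k 4 then chkOrbPos Cfsg.Agent.Lib.ToddCox.SP44T.tab L 21 3 4 136 (fun q => orbR (Nat.add 235 q)) k else true) 11 0 = true := by decide +kernel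
theorem fx3 : ∀ w ∈ L.drop 23, tabW Cfsg.Agent.Lib.ToddCox.SP44T.tab w 3 = 3 := by decide +kernel
end Cfsg.Agent.Lib.ToddCox.SP44O
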